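import Cfsg.Agent.ChevTw.TwE6Diag
import Cfsg.Agent.ChevTw.TwE6Perfect
import Cfsg.Agent.ChevGrp.Steinberg
import Cfsg.Agent.CentralExt.EmbedE6
import Cfsg.Agent.CentralExt.SteinbergCover
import Cfsg.Agent.CentralExt.Sylow
import Cfsg.Agent.Chev.Rules

/-!
# The triple cover of ²E₆(q), 3 ∣ q + 1 (owner: helper85)
-/

set_option autoImplicit false
set_option linter.style.haveILetI false

namespace Cfsg.Agent.CentralExt.TwCells

open Cfsg.Lie Cfsg.Agent.ChevGrp Cfsg.Agent.ChevTw
open scoped commutatorElement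

variable {K : Type*} [Field K] [Fintype K] {q : ℕ}

/-- If `3 ∣ q + 1` then `3` divides the order of the multiplier of ²E₆(q). -/
theorem three_dvd_schurMult_E6 (hq : IsPrimePow q) (hK : Fintype.card K = q ^ 2) (h3 : 3 ∣ q + 1) :
    3 ∣ Nat.card (schurMult ↥(twistedE6 K q)) := by
  haveI : Fact (Nat.Prime 3) := ⟨Nat.prime_three⟩
  obtain ⟨len, hR⟩ := (rulesE6 K).root
  have hS := rulesE6 K
  set S := stSys hS
  haveI : Finite (chevE6.SteinbergGroup K) := Cfsg.Agent.CentralExt.Cover.finite_steinbergGroup hS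
  classical
  set τ := S.tau hS hR (stSys_HMul hS hR) with hτ
  -- a cube root of unity
  have h3K : 3 ∣ Fintype.card K - 1 := h3.trans ⟨q - 1, by rw [hK]; simpa using Nat.sq_sub_sq q 1⟩
  obtain ⟨ζ, hζ⟩ : ∃ ζ : Kˣ, orderOf ζ = 3 := exists_prime_orderOf_dvd_card 3 (by
    rwa [Fintype.card_units])
  have hζ3 : ζ ^ 3 = 1 := by rw [← hζ]; exact pow_orderOf_eq_one ζ
  have hζq : ζ ^ q = ζ ^ 2 := by
    obtain ⟨k, hk⟩ := h3
    refine mul_right_cancel (b := ζ) ?_
    rw [← pow_succ, ← pow_succ, hk, pow_mul, hζ3, one_pow]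
  -- the centre
  have hS' := Cfsg.Agent.Chev.rules_of_mem (D := chevE7) K (by simp)
  obtain ⟨-, hcard⟩ := Embed.center_cyclic hS hS' Embed.embedOK_E6 Embed.leftInverse_E6 Embed.kerCert_E6
  have hc3 : Nat.card (Subgroup.center (chevE6.SteinbergGroup K)) = 3 := by
    rw [hcard, Nat.card_eq_fintype_card, Nat.gcd_eq_left h3K]
  set c : Fin chevE6.rank → Kˣ := mkE6 ζ 1 (ζ ^ 2) 1 ζ (ζ ^ 2) with hcdef
  have hcker : c ∈ rootKer chevE6 K := (rootKer_E6_iff c).2 ⟨ζ, hζ3, rfl⟩
  have hkerc : ∀ d ∈ rootKer chevE6 K, τ d ∈ Subgroup.center (chevE6.SteinbergGroup K) := fun d hd => by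
    rw [center_le_tau_rootKer hS hR]
    exact ⟨d, hd, rfl⟩
  have hne : τ c ≠ 1 := by
    let φ : ↥(rootKer chevE6 K) → ↥(Subgroup.center (chevE6.SteinbergGroup K)) := fun d => ⟨τ d, hkerc d d.2⟩
    have hle : Nat.card ↥(rootKer chevE6 K) ≤ Nat.card ↥(Subgroup.center (chevE6.SteinbergGroup K)) := by
      obtain ⟨e⟩ := Embed.center_equiv_rootKer hS hS' Embed.embedOK_E6 Embed.leftInverse_E6
      rw [Nat.card_congr e.toEquiv]
    have hb : Function.Bijective φ := Function.Surjective.bijective_of_nat_card_le (by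
      rintro ⟨z, hz⟩
      obtain ⟨d, hd, rfl⟩ : z ∈ (rootKer chevE6 K).map τ := by rw [← center_le_tau_rootKer hS hR]; exact hz
      exact ⟨⟨d, hd⟩, rfl⟩) hle
    intro h
    have h1 : (⟨c, hcker⟩ : ↥(rootKer chevE6 K)) = 1 := hb.1 (Subtype.ext (by
      show τ c = τ 1
      rw [h, map_one]))
    have h0 : ζ = 1 := congrFun (congrArg Subtype.val h1) ⟨0, by decide⟩
    rw [h0, orderOf_one] at hζ
    omega
  -- the extension
  set π := S.θ
  have hπker : π.ker = Subgroup.center (chevE6.SteinbergGroup K) := stSys_ker_eq_center hS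
  have hrange : twistedE6 K q ≤ π.range := by
    rw [stSys_θ_range hS, group_eq hS]
    exact TwGroup.Tw_le (grpE6 hq hK)
  set P := (twistedE6 K q).comap π with hP
  set P' := ⁅P, P⁆ with hP'
  have hP'P : P' ≤ P := Subgroup.commutator_le_self P
  have hmapP : P.map π = twistedE6 K q := by
    rw [hP, Subgroup.map_comap_eq, inf_eq_right.2 hrange]
  have hperf : ⁅twistedE6 K q, twistedE6 K q⁆ = twistedE6 K q := by
    rw [← Subgroup.map_subtype_commutator, thm_S1104 hq hK, ← MonoidHom.range_eq_map, Subgroup.range_subtype]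
  have hmapP' : P'.map π = twistedE6 K q := by
    rw [hP', Subgroup.map_commutator, hmapP, hperf]
  -- elements of order dividing p lie in the derived group
  obtain ⟨p, hp⟩ := CharP.exists K
  obtain ⟨n, hpp, hn⟩ := FiniteField.card K p
  have hp3 : Nat.Coprime p 3 := by
    rw [Nat.coprime_primes hpp Nat.prime_three]
    rintro rfl
    obtain ⟨p', e, hp', -, he⟩ := (isPrimePow_nat_iff q).1 hq
    have hq3 : 3 ∣ q := Nat.prime_three.dvd_of_dvd_pow (n := 2) (by rw [← hK, hn]; exact dvd_pow_self 3 n.ne_zero)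
    have := Nat.dvd_sub h3 hq3
    simp at this
  have hmem : ∀ x : chevE6.SteinbergGroup K, π x ∈ twistedE6 K q → x ^ p = 1 → x ∈ P' := by
    intro x hx hxp
    rw [← hmapP'] at hx
    obtain ⟨y, hy, e⟩ := hx
    set z := x⁻¹ * y
    have hz : z ∈ Subgroup.center (chevE6.SteinbergGroup K) := by
      rw [← hπker, MonoidHom.mem_ker, map_mul, map_inv, e, inv_mul_cancel]
    have hz3 : z ^ 3 = 1 := by
      have h := congrArg Subtype.val (pow_card_eq_one' (x := (⟨z, hz⟩ : ↥(Subgroup.center (chevE6.SteinbergGroup K)))))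
      rwa [hc3] at h
    have hyp : y ^ p = z ^ p := by
      rw [show y = x * z from (mul_inv_cancel_left x y).symm,
        (show Commute x z from Subgroup.mem_center_iff.1 hz x).mul_pow, hxp, one_mul]
    have hzP : z ∈ P' := by
      have h1 : z ^ p ∈ P' := hyp ▸ pow_mem hy p
      have h2 : z ^ Nat.gcd p 3 ∈ P' := by
        rw [← zpow_natCast, Nat.gcd_eq_gcd_ab, zpow_add, zpow_mul, zpow_mul, zpow_natCast, zpow_natCast, hz3,
          one_zpow, mul_one]
        exact zpow_mem h1 _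
      rwa [hp3.gcd_eq_one, pow_one] at h2
    rw [show x = y * z⁻¹ by simp [z]]
    exact mul_mem hy (inv_mem hzP)
  have hxpow : ∀ r, r < chevE6.nroots → ∀ t : K, S.x r t ^ p = 1 := fun r hr t => by
    have h0 : S.x r 0 = 1 := by
      have h := S.x_add r hr 0 0
      rw [add_zero] at h
      exact mul_eq_left.1 h
    have h : ∀ k : ℕ, S.x r t ^ k = S.x r ((k : K) * t) := fun k => by
      induction k with
      | zero => simp [h0]
      | succ k ih => rw [pow_succ, ih, S.x_add r hr]; congr 1; push_cast; ring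
    rw [h, CharP.cast_eq_zero K p, zero_mul, h0]
  have hpair : ∀ ab ∈ [(42, 37), (56, 36)], ∀ t : K, S.hEl ab.1 t * S.hEl ab.2 (t ^ q) ∈ P' := by
    intro ab hab t
    have hf := frobE6_apply hq hK
    have hcr := commCrossE6 ab hab
    have hcomm : ∀ r ∈ [ab.1, chevE6.neg ab.1], ∀ s ∈ [ab.2, chevE6.neg ab.2], ∀ t u : K,
        Commute (S.x r t) (S.x s u) := fun r hr s hs t u => by
      obtain ⟨h1, h2, h3, h4, h5⟩ := hcr r hr s hs
      exact x_commute S h4 h5 h1 h2 h3 t u
    have hgl : ∀ r s : ℕ, r < chevE6.nroots → s < chevE6.nroots → ∀ t u : K,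
        π (S.x r t * S.x s u) = xGL chevE6 K r t * xGL chevE6 K s u := fun r s hr hs t u => by
      rw [map_mul]
      congr 1
      · exact Units.ext ((S.θ_x r hr t).trans (val_xGL hS r t).symm)
      · exact Units.ext ((S.θ_x s hs u).trans (val_xGL hS s u).symm)
    refine hEl_pair_mem S _ hcomm (fun t => t ^ q) (by simp only [← hf, map_neg, map_one])
      (fun t => by simp only [← hf, map_neg, map_inv₀]) (fun t => ?_) (fun t => ?_) t
    · obtain ⟨-, -, -, h4, h5⟩ := hcr ab.1 (by simp) ab.2 (by simp)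
      refine hmem _ ?_ ?_
      · rw [hgl _ _ h4 h5]
        simp only [List.mem_cons, List.not_mem_nil, or_false] at hab
        rcases hab with rfl | rfl
        · simpa [twistedE6] using word_mem_genSubgroup (rulesE6 K) (W := e6Words K q)
            (w := [(42, t), (37, t ^ q)]) (Or.inr ⟨t, (42, 37), by simp [e6p3, e6p5], rfl⟩)
        · simpa [twistedE6] using word_mem_genSubgroup (rulesE6 K) (W := e6Words K q)
            (w := [(56, t), (36, t ^ q)]) (Or.inr ⟨t, (56, 36), by simp [e6p1, e6p6], rfl⟩)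
      · rw [(hcomm ab.1 (by simp) ab.2 (by simp) t (t ^ q)).mul_pow, hxpow _ h4, hxpow _ h5, one_mul]
    · obtain ⟨-, -, -, h4, h5⟩ := hcr (chevE6.neg ab.1) (by simp) (chevE6.neg ab.2) (by simp)
      obtain ⟨n46, n39, n42, n37, n56, n36, -⟩ := negE6
      refine hmem _ ?_ ?_
      · rw [hgl _ _ h4 h5]
        simp only [List.mem_cons, List.not_mem_nil, or_false] at hab
        rcases hab with rfl | rfl
        · simpa [twistedE6, n42, n37] using word_mem_genSubgroup (rulesE6 K) (W := e6Words K q)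
            (w := [(29, t), (34, t ^ q)]) (Or.inr ⟨t, (29, 34), by simp [e6m3, e6m5], rfl⟩)
        · simpa [twistedE6, n56, n36] using word_mem_genSubgroup (rulesE6 K) (W := e6Words K q)
            (w := [(15, t), (35, t ^ q)]) (Or.inr ⟨t, (15, 35), by simp [e6m1, e6m6], rfl⟩)
      · rw [(hcomm _ (by simp) _ (by simp) t (t ^ q)).mul_pow, hxpow _ h4, hxpow _ h5, one_mul]
  have hzP' : τ c ∈ P' := by
    have hdec : c = (Pi.mulSingle ⟨0, by decide⟩ ζ * Pi.mulSingle ⟨5, by decide⟩ (ζ ^ q)) *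
        (Pi.mulSingle ⟨2, by decide⟩ (ζ ^ 2) * Pi.mulSingle ⟨4, by decide⟩ ((ζ ^ 2) ^ q)) := by
      have e4 : (ζ ^ 2) ^ q = ζ := by
        rw [← pow_mul, mul_comm, pow_mul, hζq, ← pow_mul, pow_succ, hζ3, one_mul]
      funext j
      revert j
      rw [forallE6]
      simp [hcdef, mkE6, Pi.mulSingle_apply, hζq, e4, Fin.ext_iff]
    have hsingle : ∀ (i : Fin chevE6.rank) (u : Kˣ), τ (Pi.mulSingle i u) = S.hEl (chevE6.simple i) u :=
      fun i u => by
        simp only [hτ, Sys.tau]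
        rw [MonoidHom.noncommPiCoprod_mulSingle]
        rfl
    obtain ⟨-, -, -, -, -, -, s0, s1, s2, s3, s4, s5⟩ := negE6
    rw [hdec]
    simp only [map_mul, hsingle, Units.val_pow_eq_pow_val]
    rw [show chevE6.simple (⟨0, by decide⟩ : Fin chevE6.rank).val = 56 from s0,
      show chevE6.simple (⟨5, by decide⟩ : Fin chevE6.rank).val = 36 from s5,
      show chevE6.simple (⟨2, by decide⟩ : Fin chevE6.rank).val = 42 from s2,
      show chevE6.simple (⟨4, by decide⟩ : Fin chevE6.rank).val = 37 from s4]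
    exact mul_mem (hpair (56, 36) (by simp) _) (hpair (42, 37) (by simp) _)
  -- the derived group is perfect
  have hPle : P ≤ P' ⊔ Subgroup.center (chevE6.SteinbergGroup K) := fun x hx => by
    have hx' : π x ∈ P'.map π := by rw [hmapP']; exact hx
    obtain ⟨y, hy, e⟩ := hx'
    rw [show x = y * (y⁻¹ * x) by group]
    exact mul_mem (Subgroup.mem_sup_left hy) (Subgroup.mem_sup_right (by
      rw [← hπker, MonoidHom.mem_ker, map_mul, map_inv, e, inv_mul_cancel]))
  let θ : ↥P' →* ↥(twistedE6 K q) := (π.comp P'.subtype).codRestrict _ fun x => hP'P x.2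
  have hker : ∀ x : ↥P', x ∈ θ.ker → (x : chevE6.SteinbergGroup K) ∈ Subgroup.center (chevE6.SteinbergGroup K) :=
    fun x hx => hπker ▸ (MonoidHom.mem_ker.2 (congrArg Subtype.val (MonoidHom.mem_ker.1 hx) : π x = 1))
  have hP'perf : commutator ↥P' = ⊤ := by
    apply Subgroup.map_injective (f := P'.subtype) Subtype.val_injective
    rw [Subgroup.map_subtype_commutator, ← MonoidHom.range_eq_map, Subgroup.range_subtype]
    refine le_antisymm (Subgroup.commutator_le_self P') ?_
    show ⁅P, P⁆ ≤ ⁅P', P'⁆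
    rw [Subgroup.commutator_le]
    have hdec : ∀ x ∈ P, ∃ y ∈ P', ∃ z ∈ Subgroup.center (chevE6.SteinbergGroup K), x = y * z := fun x hx => by
      have h := hPle hx
      rw [← SetLike.mem_coe, Subgroup.coe_mul_of_right_le_normalizer_left] at h
      · obtain ⟨y, hy, z, hz, rfl⟩ := Set.mem_mul.1 h
        exact ⟨y, hy, z, hz, rfl⟩
      · intro z hz
        rw [Subgroup.mem_normalizer_iff]
        intro w
        rw [← Subgroup.mem_center_iff.1 hz w, mul_inv_cancel_right]
    intro a ha b hb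
    obtain ⟨y, hy, z, hz, rfl⟩ := hdec a ha
    obtain ⟨y', hy', z', hz', rfl⟩ := hdec b hb
    have h1 : ∀ g, Commute g z := fun g => Subgroup.mem_center_iff.1 hz g
    have h2 : ∀ g, Commute g z' := fun g => Subgroup.mem_center_iff.1 hz' g
    have e : ⁅y * z, y' * z'⁆ = ⁅y, y'⁆ := by
      simp only [commutatorElement_def, mul_inv_rev]
      calc y * z * (y' * z') * (z⁻¹ * y⁻¹) * (z'⁻¹ * y'⁻¹)
          = y * (z * (y' * z')) * z⁻¹ * y⁻¹ * z'⁻¹ * y'⁻¹ := by group
        _ = y * y' * (z' * y⁻¹) * z'⁻¹ * y'⁻¹ := by rw [← (h1 (y' * z')).eq]; group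
        _ = y * y' * y⁻¹ * y'⁻¹ := by rw [← (h2 y⁻¹).eq]; group
    rw [e]
    exact Subgroup.commutator_mem_commutator hy hy'
  have hθ : IsStemExtension θ := by
    refine ⟨fun g => ?_, fun x hx => Subgroup.mem_center_iff.2 fun g => Subtype.ext
      (Subgroup.mem_center_iff.1 (hker x hx) g), by rw [hP'perf]; exact le_top⟩
    have hg : (g : GL chevE6.Idx K) ∈ P'.map π := by rw [hmapP']; exact g.2
    obtain ⟨y, hy, e⟩ := hg
    exact ⟨⟨y, hy⟩, Subtype.ext e⟩
  let z₀ : ↥θ.ker := ⟨⟨τ c, hzP'⟩, MonoidHom.mem_ker.2 (Subtype.ext (MonoidHom.mem_ker.1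
    (show τ c ∈ π.ker by rw [hπker]; exact hkerc c hcker) : π (τ c) = 1))⟩
  have hz₀ : orderOf z₀ = 3 := by
    refine orderOf_eq_prime (Subtype.ext (Subtype.ext ?_)) fun h =>
      hne (congrArg (fun x : ↥θ.ker => ((x : ↥P') : chevE6.SteinbergGroup K)) h)
    show τ c ^ 3 = 1
    rw [← map_pow]
    convert map_one τ using 2
    funext j
    revert j
    rw [forallE6]
    have h6 : (ζ ^ 2) ^ 3 = 1 := by rw [← pow_mul, mul_comm, pow_mul, hζ3, one_pow]
    simp [hcdef, mkE6, hζ3, h6]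
  haveI : Finite ↥θ.ker := inferInstance
  rw [← hz₀]
  exact (orderOf_dvd_natCard z₀).trans (card_ker_dvd_schurMult hθ)

end Cfsg.Agent.CentralExt.TwCells
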