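import Cfsg.Agent.CentralExt.TwCells.Lifted
import Cfsg.Agent.ChevTw.TwE6Diag
import Cfsg.Agent.ChevTw.TwE6Thms
import Cfsg.Agent.ChevTw.TwTorus
import Cfsg.Agent.Chev.Torus
import Cfsg.Agent.Chev.TablesE6

/-!
# The multiplier of ²E₆(q) away from the characteristic (owner: helper85)
-/

set_option autoImplicit false
set_option linter.style.haveILetI false

namespace Cfsg.Agent.CentralExt.TwCells

open Cfsg.Lie Cfsg.Agent.ChevGrp Cfsg.Agent.ChevTw Cfsg.Agent.CTits Cfsg.Agent.CentralExt.BNLift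
open scoped MatrixGroups

variable {K : Type*} [Field K]

theorem rankOneRootE6 {r : ℕ} (hr : r < chevE6.nroots) :
    Cfsg.Agent.Chev.RankOne K (xGL chevE6 K r) (xGL chevE6 K (chevE6.neg r)) := by
  open Cfsg.Agent.Chev in
  have e1 : (validE6.xU (F := K) hr) = xGL chevE6 K r :=
    funext fun t => Units.ext (val_xGL (rulesE6 K) r t).symm
  open Cfsg.Agent.Chev in
  have e2 : (validE6.xU (F := K) (validE6.neg_lt hr)) = xGL chevE6 K (chevE6.neg r) :=
    funext fun t => Units.ext (val_xGL (rulesE6 K) _ t).symm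
  open Cfsg.Agent.Chev in
  have h := validE6.rankOne (F := K) hr
  rwa [e1, e2] at h

/-- The `SL₂` of a root. -/
noncomputable def rootHomE6 {r : ℕ} (hr : r < chevE6.nroots) : SL(2, K) →* GL chevE6.Idx K :=
  (rankOneRootE6 hr).hom

theorem rootHomE6_up {r : ℕ} (hr : r < chevE6.nroots) (t : K) :
    rootHomE6 hr (up t) = (glSys (rulesE6 K)).x r t :=
  (rankOneRootE6 hr).hom_upper rfl

theorem rootHomE6_lo {r : ℕ} (hr : r < chevE6.nroots) (t : K) :
    rootHomE6 hr (lo t) = (glSys (rulesE6 K)).x (chevE6.neg r) t :=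
  (rankOneRootE6 hr).hom_lower rfl

theorem rootHomE6_dg {r : ℕ} (hr : r < chevE6.nroots) (a : Kˣ) :
    rootHomE6 hr (dg a) = (glSys (rulesE6 K)).hEl r a := by
  have hw : ∀ t : K, rootHomE6 hr (wm t) = (glSys (rulesE6 K)).nEl r t := fun t => by
    rw [wm, map_mul, map_mul, rootHomE6_up, rootHomE6_lo]
    rfl
  rw [← show wm (a : K) * wm (-1) = dg a by rw [wm_mul_neg_one a.ne_zero]; simp, map_mul, hw, hw]
  rfl

theorem rootHomE6_commute {ab : ℕ × ℕ} (hab : ab ∈ [(42, 37), (56, 36)]) (h1 : ab.1 < chevE6.nroots)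
    (h2 : ab.2 < chevE6.nroots) (y z : SL(2, K)) : Commute (rootHomE6 h1 y) (rootHomE6 h2 z) := by
  have key : ∀ r ∈ [ab.1, chevE6.neg ab.1], ∀ s ∈ [ab.2, chevE6.neg ab.2], ∀ t u : K,
      Commute ((glSys (rulesE6 K)).x r t) ((glSys (rulesE6 K)).x s u) := fun r hr s hs t u => by
    obtain ⟨a1, a2, a3, a4, a5⟩ := commCrossE6 ab hab r hr s hs
    exact x_commute (glSys (rulesE6 K)) a4 a5 a1 a2 a3 t u
  refine sl2_induction (fun y => ∀ z, Commute (rootHomE6 h1 y) (rootHomE6 h2 z)) (fun t z => ?_) (fun t z => ?_)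
    (fun A B hA hB z => by rw [map_mul]; exact (hA z).mul_left (hB z)) y z <;>
  · refine sl2_induction (fun z => Commute _ (rootHomE6 h2 z)) (fun u => ?_) (fun u => ?_)
      (fun A B hA hB => by rw [map_mul]; exact hA.mul_right hB) z <;>
    · simp only [rootHomE6_up, rootHomE6_lo]
      exact key _ (by simp) _ (by simp) t u

variable [Fintype K] {q : ℕ} (hq : IsPrimePow q) (hK : Fintype.card K = q ^ 2)

/-- The field of an orbit. -/
noncomputable def kE6 (J : Fin twE6.nOrb) : Subfield K :=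
  if J.val < 2 then RingHom.eqLocusField (frobE6 hq hK) (RingHom.id K) else ⊤

theorem mem_kE6 {J : Fin twE6.nOrb} {t : K} : t ∈ kE6 hq hK J ↔ (J.val < 2 → t ^ q = t) := by
  rw [kE6]
  split_ifs with h
  · simp only [h, forall_const]
    exact (Iff.of_eq (congrArg (· = t) (frobE6_apply hq hK t)))
  · simp [h]

/-- The homomorphism of a single root. -/
noncomputable def single {r : ℕ} (hr : r < chevE6.nroots) (J : Fin twE6.nOrb) :
    SL(2, ↥(kE6 hq hK J)) →* GL chevE6.Idx K :=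
  (rootHomE6 hr).comp (Matrix.SpecialLinearGroup.map (kE6 hq hK J).subtype)

/-- The homomorphism of a pair of roots. -/
noncomputable def double {a b : ℕ} (hab : (a, b) ∈ [(42, 37), (56, 36)]) (ha : a < chevE6.nroots)
    (hb : b < chevE6.nroots) (J : Fin twE6.nOrb) : SL(2, ↥(kE6 hq hK J)) →* GL chevE6.Idx K :=
  MonoidHom.mk' (fun y => rootHomE6 ha (Matrix.SpecialLinearGroup.map (kE6 hq hK J).subtype y) *
      rootHomE6 hb (Matrix.SpecialLinearGroup.map (frobE6 hq hK)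
        (Matrix.SpecialLinearGroup.map (kE6 hq hK J).subtype y)))
    fun y z => by
    simp only [map_mul]
    rw [mul_assoc, mul_assoc, ← mul_assoc (rootHomE6 ha _) (rootHomE6 hb _) (rootHomE6 hb _),
      (rootHomE6_commute (K := K) hab ha hb _ _).eq, mul_assoc]

/-- The homomorphism of an orbit. -/
noncomputable def phiE6 : (J : Fin twE6.nOrb) → SL(2, ↥(kE6 hq hK J)) →* GL chevE6.Idx K
  | ⟨0, h⟩ => single hq hK (show 46 < chevE6.nroots by decide) ⟨0, h⟩
  | ⟨1, h⟩ => single hq hK (show 39 < chevE6.nroots by decide) ⟨1, h⟩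
  | ⟨2, h⟩ => double hq hK (a := 42) (b := 37) (by simp) (by decide) (by decide) ⟨2, h⟩
  | ⟨_ + 3, h⟩ => double hq hK (a := 56) (b := 36) (by simp) (by decide) (by decide) ⟨_ + 3, h⟩

theorem map_upE6 {F L : Type*} [Field F] [Field L] (f : F →+* L) (t : F) :
    Matrix.SpecialLinearGroup.map f (up t) = up (f t) := by
  apply Subtype.ext; show (up t).1.map f = (up (f t)).1
  ext i j; fin_cases i <;> fin_cases j <;> simp [up]

theorem map_loE6 {F L : Type*} [Field F] [Field L] (f : F →+* L) (t : F) :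
    Matrix.SpecialLinearGroup.map f (lo t) = lo (f t) := by
  apply Subtype.ext; show (lo t).1.map f = (lo (f t)).1
  ext i j; fin_cases i <;> fin_cases j <;> simp [lo]

theorem map_dgE6 {F L : Type*} [Field F] [Field L] (f : F →+* L) (a : Fˣ) :
    Matrix.SpecialLinearGroup.map f (dg a) = dg (Units.map f.toMonoidHom a) := by
  apply Subtype.ext; show (dg a).1.map f = (dg (Units.map f.toMonoidHom a)).1
  ext i j; fin_cases i <;> fin_cases j <;> simp [dg]

/-- The words of the orbits. -/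
def wordsE6 (q : ℕ) (t : K) : List (List (ℕ × K)) :=
  [[(46, t)], [(39, t)], [(42, t), (37, t ^ q)], [(56, t), (36, t ^ q)],
    [(25, t)], [(32, t)], [(29, t), (34, t ^ q)], [(15, t), (35, t ^ q)]]

theorem phiE6_up_lo (J : Fin twE6.nOrb) (t : ↥(kE6 hq hK J)) :
    phiE6 hq hK J (up t) = (((wordsE6 q (t : K)).getD J.val []).map fun p => xGL chevE6 K p.1 p.2).prod ∧
      phiE6 hq hK J (lo t) =
        (((wordsE6 q (t : K)).getD (J.val + 4) []).map fun p => xGL chevE6 K p.1 p.2).prod := by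
  obtain ⟨n46, n39, n42, n37, n56, n36, -⟩ := negE6
  match J, t with
  | ⟨0, h⟩, t => simp [phiE6, single, wordsE6, map_upE6, map_loE6, rootHomE6_up, rootHomE6_lo, n46]; exact ⟨rfl, rfl⟩
  | ⟨1, h⟩, t => simp [phiE6, single, wordsE6, map_upE6, map_loE6, rootHomE6_up, rootHomE6_lo, n39]; exact ⟨rfl, rfl⟩
  | ⟨2, h⟩, t =>
    simp [phiE6, double, wordsE6, map_upE6, map_loE6, rootHomE6_up, rootHomE6_lo, n42, n37, frobE6_apply]
    exact ⟨rfl, rfl⟩
  | ⟨3, h⟩, t =>
    simp [phiE6, double, wordsE6, map_upE6, map_loE6, rootHomE6_up, rootHomE6_lo, n56, n36, frobE6_apply]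
    exact ⟨rfl, rfl⟩

/-- The parameters of the product of the tori. -/
noncomputable def parE6 : (∀ J, (↥(kE6 hq hK J))ˣ) →* (Fin chevE6.rank → Kˣ) where
  toFun c :=
    let u : Fin twE6.nOrb → Kˣ := fun J => Units.map (kE6 hq hK J).subtype.toMonoidHom (c J)
    mkE6 (u ⟨3, by decide⟩) (u ⟨0, by decide⟩) (u ⟨2, by decide⟩) (u ⟨1, by decide⟩)
      (u ⟨2, by decide⟩ ^ q) (u ⟨3, by decide⟩ ^ q)
  map_one' := by funext j; revert j; rw [forallE6]; simp [mkE6]
  map_mul' a b := by funext j; revert j; rw [forallE6]; simp [mkE6, mul_pow]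

theorem hEl_eq_tauE6 {len : ℕ → ℕ} (hR : RootTable chevE6 len) (i : Fin chevE6.rank) (u : Kˣ) :
    (glSys (rulesE6 K)).hEl (chevE6.simple i) u =
      (glSys (rulesE6 K)).tau (rulesE6 K) hR (glSys_HMul (rulesE6 K) hR) (Pi.mulSingle i u) := by
  rw [Sys.tau, MonoidHom.noncommPiCoprod_mulSingle]
  rfl

theorem phiE6_dg {len : ℕ → ℕ} (hR : RootTable chevE6 len) (J : Fin twE6.nOrb) (a : (↥(kE6 hq hK J))ˣ) :
    phiE6 hq hK J (dg a) = (glSys (rulesE6 K)).tau (rulesE6 K) hR (glSys_HMul (rulesE6 K) hR)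
      (parE6 hq hK (Pi.mulSingle J a)) := by
  obtain ⟨-, -, -, -, -, -, s0, s1, s2, s3, s4, s5⟩ := negE6
  have hσ : ∀ w : Kˣ, Units.map (frobE6 hq hK).toMonoidHom w = w ^ q := fun w => Units.ext (by simp [frobE6_apply])
  have h0 := fun u => hEl_eq_tauE6 (K := K) hR ⟨0, by decide⟩ u
  have h1 := fun u => hEl_eq_tauE6 (K := K) hR ⟨1, by decide⟩ u
  have h2 := fun u => hEl_eq_tauE6 (K := K) hR ⟨2, by decide⟩ u
  have h3 := fun u => hEl_eq_tauE6 (K := K) hR ⟨3, by decide⟩ u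
  have h4 := fun u => hEl_eq_tauE6 (K := K) hR ⟨4, by decide⟩ u
  have h5 := fun u => hEl_eq_tauE6 (K := K) hR ⟨5, by decide⟩ u
  simp only [s0, s1, s2, s3, s4, s5] at h0 h1 h2 h3 h4 h5
  match J, a with
  | ⟨0, h⟩, a =>
    rw [phiE6, single, MonoidHom.comp_apply, map_dgE6, rootHomE6_dg, h1]
    congr 1; funext j; revert j; rw [forallE6]; simp [mkE6, parE6, Pi.mulSingle_apply, Fin.ext_iff]
  | ⟨1, h⟩, a =>
    rw [phiE6, single, MonoidHom.comp_apply, map_dgE6, rootHomE6_dg, h3]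
    congr 1; funext j; revert j; rw [forallE6]; simp [mkE6, parE6, Pi.mulSingle_apply, Fin.ext_iff]
  | ⟨2, h⟩, a =>
    rw [phiE6, double, MonoidHom.mk'_apply, map_dgE6, map_dgE6, hσ, rootHomE6_dg, rootHomE6_dg, h2, h4, ← map_mul]
    congr 1; funext j; revert j; rw [forallE6]; simp [mkE6, parE6, Pi.mulSingle_apply, Fin.ext_iff]
  | ⟨3, h⟩, a =>
    rw [phiE6, double, MonoidHom.mk'_apply, map_dgE6, map_dgE6, hσ, rootHomE6_dg, rootHomE6_dg, h0, h5, ← map_mul]
    congr 1; funext j; revert j; rw [forallE6]; simp [mkE6, parE6, Pi.mulSingle_apply, Fin.ext_iff]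

theorem parE6_fixed (c : ∀ J, (↥(kE6 hq hK J))ˣ) : parE6 hq hK c ∈ fixTorusE6 K q := by
  have hm : ∀ J : Fin twE6.nOrb, J.val < 2 →
      (Units.map (kE6 hq hK J).subtype.toMonoidHom (c J)) ^ q = Units.map (kE6 hq hK J).subtype.toMonoidHom (c J) :=
    fun J hJ => Units.ext (by
      rw [Units.val_pow_eq_pow_val]
      exact (mem_kE6 hq hK).1 (c J : ↥(kE6 hq hK J)).2 hJ)
  refine (mem_mk_iff _).2 ?_
  simp only [parE6, MonoidHom.coe_mk, OneHom.coe_mk, mkE6, List.getD_cons_zero, List.getD_cons_succ]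
  refine ⟨?_, ?_, ?_, ?_, ?_, ?_⟩ <;> first | trivial | exact units_pow_qq hK _ | exact hm _ (by decide)

theorem parE6_injective : Function.Injective (parE6 hq hK) := by
  intro c d e
  have e' := congrFun e
  funext J
  refine Units.map_injective (f := (kE6 hq hK J).subtype.toMonoidHom) Subtype.val_injective ?_
  match J with
  | ⟨0, h⟩ => exact e' ⟨1, by decide⟩
  | ⟨1, h⟩ => exact e' ⟨3, by decide⟩
  | ⟨2, h⟩ => exact e' ⟨2, by decide⟩
  | ⟨3, h⟩ => exact e' ⟨0, by decide⟩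

theorem orbHom_E6 (J : Fin twE6.nOrb) : OrbHom (O := orbE6 hq hK) (phiE6 hq hK J) J := by
  obtain ⟨len, hR⟩ := (rulesE6 K).root
  have hpos : ∀ g, g ∈ fixUS (twistE6 hq hK) ((orbE6 hq hK).posJ J) ↔ ∃ t, g = phiE6 hq hK J (up t) := fun g =>
    (fixE6 hq hK J false g).trans ⟨fun ⟨t, ht, e⟩ => ⟨⟨t, (mem_kE6 hq hK).2 ht⟩, by rw [(phiE6_up_lo hq hK J _).1]; exact e⟩,
      fun ⟨t, e⟩ => ⟨(t : K), (mem_kE6 hq hK).1 t.2, by rw [e, (phiE6_up_lo hq hK J t).1]; rfl⟩⟩
  have hcard : Nat.card ↥(kE6 hq hK J) = if J.val < 2 then q else q ^ 2 := by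
    by_cases h : J.val < 2
    · rw [if_pos h]
      exact (Nat.card_congr (Equiv.subtypeEquivRight fun t => by simp [mem_kE6, h])).trans
        (card_fixed (K := K) hq.one_lt hK)
    · rw [if_neg h]
      exact ((Nat.card_congr (Equiv.subtypeUnivEquiv fun t => (mem_kE6 hq hK).2 fun h' => absurd h' h)).trans
        Nat.card_eq_fintype_card).trans hK
  let W : ↥(kE6 hq hK J) → ↥(fixUS (twistE6 hq hK) ((orbE6 hq hK).posJ J)) := fun t =>
    ⟨phiE6 hq hK J (up t), (hpos _).2 ⟨t, rfl⟩⟩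
  have hW : Function.Bijective W := Function.Surjective.bijective_of_nat_card_le (by
    rintro ⟨g, hg⟩
    obtain ⟨t, rfl⟩ := (hpos g).1 hg
    exact ⟨t, rfl⟩) (by rw [card_fixE6 hq hK J, hcard])
  refine ⟨hpos, fun g => (fixE6 hq hK J true g).trans ⟨fun ⟨t, ht, e⟩ =>
      ⟨⟨t, (mem_kE6 hq hK).2 ht⟩, by rw [(phiE6_up_lo hq hK J _).2]; exact e⟩,
      fun ⟨t, e⟩ => ⟨(t : K), (mem_kE6 hq hK).1 t.2, by rw [e, (phiE6_up_lo hq hK J t).2]; rfl⟩⟩, fun a => ?_,
    fun t ht => hW.1 (Subtype.ext (ht.trans (show (1 : GL chevE6.Idx K) = phiE6 hq hK J (up 0) by rw [up_zero, map_one]))), fun a ha => ?_⟩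
  · rw [phiE6_dg hq hK hR, ← (glSys (rulesE6 K)).tau_range (rulesE6 K) hR (glSys_HMul (rulesE6 K) hR)]
    exact ⟨_, rfl⟩
  · rw [phiE6_dg hq hK hR] at ha
    have hk := ((glSys (rulesE6 K)).θ_tau_eq_one_iff (rulesE6 K) hR (glSys_HMul (rulesE6 K) hR) _).1
      ((congrArg (glSys (rulesE6 K)).θ ha).trans (map_one _))
    obtain ⟨z, hz, e⟩ := (rootKer_E6_iff _).1 hk
    have e0 := congrFun e ⟨0, by decide⟩
    have e2 := congrFun e ⟨2, by decide⟩
    have hz1 : z = 1 := by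
      simp only [parE6, MonoidHom.coe_mk, OneHom.coe_mk, mkE6, List.getD_cons_zero, List.getD_cons_succ] at e0 e2
      by_cases h : J = ⟨3, by decide⟩
      · subst h
        rw [Pi.mulSingle_eq_of_ne (by decide), map_one] at e2
        rw [← hz, pow_succ, ← e2, one_mul]
      · rw [Pi.mulSingle_eq_of_ne (Ne.symm h), map_one] at e0
        exact e0.symm
    subst hz1
    have h1 : parE6 hq hK (Pi.mulSingle J a) = parE6 hq hK 1 := by
      rw [map_one, e]; funext j; revert j; rw [forallE6]; simp [mkE6]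
    simpa using congrFun (parE6_injective hq hK h1) J

/-- The lists of the roots of an orbit are carried to those of another. -/
def mapsB (w : List (Fin chevE6.rank)) (a b : Fin twE6.nOrb) : Bool :=
  ((twE6.posList a).all fun r => (twE6.posList b).contains (act chevE6 w r)) &&
    (((twE6.posList a).map chevE6.neg).all fun r => ((twE6.posList b).map chevE6.neg).contains (act chevE6 w r)) &&
    ((twE6.posList b).all fun r => (twE6.posList a).contains (act chevE6 w.reverse r)) &&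
    (((twE6.posList b).map chevE6.neg).all fun r =>
      ((twE6.posList a).map chevE6.neg).contains (act chevE6 w.reverse r))

theorem braid_table : ∀ p : Fin twE6.nOrb × Fin twE6.nOrb, p.1 = p.2 ∨
    (CoxeterMatrix.F₄ p.1 p.2 = 2 ∧ mapsB (twE6.wJ chevE6 p.1) p.2 p.2 = true) ∨
    (CoxeterMatrix.F₄ p.1 p.2 = 3 ∧ mapsB (twE6.wJ chevE6 p.1 ++ twE6.wJ chevE6 p.2) p.1 p.2 = true) ∨
    (CoxeterMatrix.F₄ p.1 p.2 = 4 ∧
      mapsB (twE6.wJ chevE6 p.1 ++ (twE6.wJ chevE6 p.2 ++ twE6.wJ chevE6 p.1)) p.2 p.2 = true) := by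
  decide +kernel

include hq hK in
theorem card_ker_dvd_E6 {p r : ℕ} [Fact p.Prime] [Fact r.Prime] [CharP K p] (hne : p ≠ r)
    {Δ : Type*} [Group Δ] [Finite Δ] {τ : Δ →* ↥(twistedE6 K q)} (hτ : IsStemExtension τ)
    (hk : IsPGroup r τ.ker) : Nat.card τ.ker ∣ Nat.gcd 3 (q + 1) := by
  obtain ⟨len, hR⟩ := (rulesE6 K).root
  set O := orbE6 hq hK
  set S := glSys (rulesE6 K)
  obtain ⟨π, hπ, hgJ⟩ := exists_coxeter_perm hR (n := 4) (twE6.wJ chevE6) CoxeterMatrix.F₄
    (Cfsg.Agent.CoxTower.listM_self _) Cfsg.Agent.CoxTower.Tables.checkF4 rfl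
    Cfsg.Agent.CoxTower.Tables.matrixF4 _ _ twE6_action twE6_faithful twE6_tab
  have hfaith : ∀ ks, (∀ i < chevE6.nroots, act chevE6 (O.word ks) i = i) →
      CoxeterMatrix.F₄.toCoxeterSystem.wordProd ks = 1 := fun ks hks => hπ (by
    rw [map_one]
    have h : ∀ (l : List (Fin twE6.nOrb)) (x : Fin chevE6.nroots),
        (π (CoxeterMatrix.F₄.toCoxeterSystem.wordProd l) x).val = act chevE6 (O.word l) x.val := by
      intro l
      induction l with
      | nil => intro x; erw [CoxeterSystem.wordProd_nil, map_one]; rfl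
      | cons j l ih =>
        intro x
        erw [CoxeterSystem.wordProd_cons, map_mul, Equiv.Perm.mul_apply]
        rw [show j :: l = [j] ++ l from rfl, O.word_append, O.word_singleton, act_append, ← ih]
        have hs : π (CoxeterMatrix.F₄.toCoxeterSystem.simple j) = actPerm hR (twE6.wJ chevE6 j) := by
          rw [CoxeterMatrix.toCoxeterSystem_simple]; exact hgJ j
        rw [hs]
        rfl
    exact Equiv.ext fun x => Fin.ext ((h ks x).trans (hks x x.2)))
  have hmaps : ∀ w a b, mapsB w a b = true → Maps O w a b := fun w a b h => by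
    have ep := fun J => twE6_ok.enum_posJ (T := twistE6 hq hK) (fun _ => rfl) rfl J
    have en := fun J => twE6_ok.enum_negJ (T := twistE6 hq hK) (fun _ => rfl) rfl hR J
    simp only [mapsB, Bool.and_eq_true, List.all_eq_true, List.contains_iff_mem] at h
    exact ⟨fun r hr => ((ep b).2 _).1 (h.1.1.1 r (((ep a).2 r).2 hr)),
      fun r hr => ((en b).2 _).1 (h.1.1.2 r (((en a).2 r).2 hr)),
      fun r hr => ((ep a).2 _).1 (h.1.2 r (((ep b).2 r).2 hr)),
      fun r hr => ((en a).2 _).1 (h.2 r (((en b).2 r).2 hr))⟩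
  set P := parE6 hq hK
  set ψ := (S.tau (rulesE6 K) hR (glSys_HMul (rulesE6 K) hR)).comp P with hψ
  have hU : IsPGroup p ↥(S.Ubar ⊓ twistedE6 K q) := by
    obtain ⟨n, -, hn⟩ := FiniteField.card K p
    obtain ⟨p', e, hp', he, rfl⟩ := (isPrimePow_nat_iff q).1 hq
    have hpp : p' = p := by
      rw [hK, ← pow_mul] at hn
      exact Nat.prime_eq_prime_of_dvd_pow hp' Fact.out (by
        have := dvd_pow_self p' (show e * 2 ≠ 0 by omega)
        rwa [hn] at this)
    subst hpp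
    refine IsPGroup.of_card (n := e * 36) ?_
    rw [pow_mul, ← thm_S1086 hq hK, posUnipotent_eq (rulesE6 K)]
  haveI : Finite K := Finite.of_fintype K
  haveI : Finite ↥((grpE6 hq hK).Tw) := inferInstanceAs (Finite ↥(twistedE6 K q))
  refine (card_ker_dvd (grpE6 hq hK) (rulesE6 K) hR (glSys_HMul (rulesE6 K) hR)
    (twE6_ok.isLongest (T := twistE6 hq hK) (fun _ => rfl) rfl) hne (kE6 hq hK) (phiE6 hq hK)
    (orbHom_E6 hq hK) hU CoxeterMatrix.F₄ hfaith (fun i j => ?_) ψ (fun J a => by rw [hψ, MonoidHom.comp_apply]; exact (phiE6_dg hq hK hR J a).symm)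
    hτ hk).trans ?_
  · rcases braid_table (i, j) with h | ⟨e, h⟩ | ⟨e, h⟩ | ⟨e, h⟩
    · exact Or.inl h
    · refine Or.inr (Or.inl ⟨e, hmaps _ _ _ ?_⟩)
      rwa [O.word_singleton]
    · refine Or.inr (Or.inr (Or.inl ⟨e, hmaps _ _ _ ?_⟩))
      rwa [show [i, j] = [i] ++ [j] from rfl, O.word_append, O.word_singleton, O.word_singleton]
    · refine Or.inr (Or.inr (Or.inr ⟨e, hmaps _ _ _ ?_⟩))
      rwa [show [i, j, i] = [i] ++ ([j] ++ [i]) from rfl, O.word_append, O.word_append, O.word_singleton,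
        O.word_singleton]
  · rw [← card_kerE6 hq.one_lt hK]
    exact Subgroup.card_dvd_of_injective
      ((P.comp ψ.ker.subtype).codRestrict _ fun c => Subgroup.mem_inf.2
        ⟨(S.θ_tau_eq_one_iff (rulesE6 K) hR (glSys_HMul (rulesE6 K) hR) _).1 ((congrArg S.θ c.2).trans (map_one _)), parE6_fixed hq hK c.1⟩)
      (fun a b e => Subtype.ext (parE6_injective hq hK (congrArg Subtype.val e)))

end Cfsg.Agent.CentralExt.TwCells
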