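import Cfsg.Agent.CentralExt.BNLift
import Cfsg.Agent.ChevTw.TwBN

/-!
# Homomorphisms of SL₂ onto the groups of the orbits of a twisted group (owner: helper85)
-/

set_option autoImplicit false
set_option linter.unusedSectionVars false

namespace Cfsg.Agent.CentralExt.TwCells

open Cfsg.Lie Cfsg.Agent.ChevGrp Cfsg.Agent.ChevTw Cfsg.Agent.CTits Cfsg.Agent.CentralExt.BNLift
open scoped MatrixGroups

variable {D : ChevalleyDatum} {F : Type*} [Field F] {G : Type*} [Group G] {len : ℕ → ℕ}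
  {S : Sys D F G} {T : Twist S} {ι : Type*} {O : Orbits T ι} (W : TwGroup O)

/-- A homomorphism of `SL₂` onto the fixed points of an orbit and its negative. -/
structure OrbHom {L : Type*} [Field L] (φ : SL(2, L) →* G) (J : ι) : Prop where
  pos : ∀ g, g ∈ fixUS T (O.posJ J) ↔ ∃ t, g = φ (up t)
  neg : ∀ g, g ∈ fixUS T (O.negJ J) ↔ ∃ t, g = φ (lo t)
  dg_mem : ∀ a, φ (dg a) ∈ S.Hbar
  up_one : ∀ t, φ (up t) = 1 → t = 0
  dg_one : ∀ a, φ (dg a) = 1 → a = 1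

namespace OrbHom

variable {L : Type*} [Field L] {φ : SL(2, L) →* G} {J : ι} (h : OrbHom (O := O) φ J)
include h

theorem up_Ubar (t : L) : φ (up t) ∈ S.Ubar :=
  S.US_mono (fun _ hr => hr.1) ((h.pos _).2 ⟨t, rfl⟩).1

include W

theorem mem_Tw (y : SL(2, L)) : φ y ∈ W.Tw :=
  sl2_induction (fun y => φ y ∈ W.Tw) (fun t => W.fixPos_mem J ((h.pos _).2 ⟨t, rfl⟩))
    (fun t => W.fixNeg_mem J ((h.neg _).2 ⟨t, rfl⟩))
    (fun _ _ ha hb => by rw [map_mul]; exact mul_mem ha hb) y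

omit W in
theorem lo_one (t : L) (ht : φ (lo t) = 1) : t = 0 := by
  have e : up (-t) = wm 1 * lo t * (wm 1)⁻¹ := (wm_conj_lo t).symm
  have := h.up_one (-t) (by rw [e, map_mul, map_mul, ht, map_inv, mul_one, mul_inv_cancel])
  simpa using this

omit W in
theorem injective (hS : Rules D F) (hR : RootTable D len) : Function.Injective φ := by
  refine (injective_iff_map_eq_one φ).2 fun y hy => ?_
  by_cases hc : y.1 1 0 = 0
  · have ha : y.1 0 0 ≠ 0 := by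
      have hd := y.2
      rw [Matrix.det_fin_two, hc, mul_zero, sub_zero] at hd
      exact left_ne_zero_of_mul_eq_one hd
    have hd : y.1 1 1 = (y.1 0 0)⁻¹ := by
      have hd := y.2
      rw [Matrix.det_fin_two, hc, mul_zero, sub_zero] at hd
      exact eq_inv_of_mul_eq_one_right hd
    have e : y = up (y.1 0 1 * y.1 0 0) * dg (Units.mk0 _ ha) := by
      apply Subtype.ext
      rw [Linear.val_mul, up_val]
      ext i j
      fin_cases i <;> fin_cases j <;>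
        simp [dg, Matrix.mul_apply, Fin.sum_univ_two, hc, hd]
      field_simp
    rw [e, map_mul] at hy
    obtain ⟨e1, e2⟩ := S.Bbar_decomp_unique hS hR (h.up_Ubar _) (one_mem _) (h.dg_mem _) (one_mem _)
      (hy.trans (one_mul 1).symm)
    rw [e, h.up_one _ e1, h.dg_one _ e2, up_zero, BNLift.dg_one, one_mul]
  exfalso
  set c := y.1 1 0 with hcdef
  have hci : -c⁻¹ ≠ 0 := neg_ne_zero.2 (inv_ne_zero hc)
  have e : y = up (y.1 0 0 / c) * wm (-c⁻¹) * up (y.1 1 1 / c) := by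
    apply Subtype.ext
    rw [Linear.val_mul, Linear.val_mul, up_val, up_val, wm_val' hci]
    have hd := y.2
    rw [Matrix.det_fin_two, ← hcdef] at hd
    ext i j
    fin_cases i <;> fin_cases j <;> simp [Matrix.mul_apply, Fin.sum_univ_two, ← hcdef] <;> field_simp <;>
      first | linear_combination hd | linear_combination -hd | rfl | simp [hcdef]
  rw [e, map_mul, map_mul, wm_eq hci, map_mul] at hy
  have hwB : φ (wm 1) ∈ S.Bbar := by
    have e' : φ (wm 1) = (φ (up (y.1 0 0 / c)) * φ (dg (Units.mk0 _ hci)))⁻¹ * (φ (up (y.1 1 1 / c)))⁻¹ := by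
      rw [eq_inv_mul_iff_mul_eq, eq_inv_iff_mul_eq_one, mul_assoc, mul_assoc, ← mul_assoc (φ (dg _)),
        ← mul_assoc]
      exact hy
    rw [e']
    exact mul_mem (inv_mem (mul_mem (S.Ubar_le_Bbar (h.up_Ubar _)) (S.Hbar_le_Bbar (h.dg_mem _))))
      (inv_mem (S.Ubar_le_Bbar (h.up_Ubar _)))
  have hv : φ (lo (-1)) ∈ S.Vbar ⊓ S.Bbar := by
    refine Subgroup.mem_inf.2 ⟨S.US_mono (fun _ hr => hr.1) ((h.neg _).2 ⟨_, rfl⟩).1, ?_⟩
    rw [← wm_conj_up, map_mul, map_mul, map_inv]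
    exact mul_mem (mul_mem hwB (S.Ubar_le_Bbar (h.up_Ubar _))) (inv_mem hwB)
  rw [S.Vbar_inf_Bbar hS hR, Subgroup.mem_bot] at hv
  exact neg_ne_zero.2 one_ne_zero (h.lo_one _ hv)

theorem wm_conjP (hS : Rules D F) (hR : RootTable D len) :
    φ (wm 1) ∈ S.Nbar ∧ S.ConjP (φ (wm 1)) (O.wJ J) := by
  have hv1 : φ (lo (-1)) ≠ 1 := fun e => neg_ne_zero.2 (one_ne_zero (α := L)) (h.lo_one _ e)
  obtain ⟨c, hc, u, hu, n, hn, hnc, hnT, hv⟩ := W.neg_decomp hS hR J ((h.neg _).2 ⟨_, rfl⟩) hv1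
  obtain ⟨a, rfl⟩ := (h.pos _).1 hc
  obtain ⟨b, rfl⟩ := (h.pos _).1 hu
  set y := (up a)⁻¹ * lo (-1) * (up b)⁻¹
  have hy : n = φ y := by
    simp only [y, map_mul, map_inv, hv]
    group
  have hinj := h.injective hS hR
  have s1 : ∃ c, y * up 1 * y⁻¹ = lo c := by
    have := W.conj_neg_fix hnT hnc O.posJ_lt (fun r hr => O.act_wJ_mem hR J hr) ((h.pos _).2 ⟨1, rfl⟩)
    obtain ⟨c, hc⟩ := (h.neg _).1 this
    exact ⟨c, hinj (by rw [map_mul, map_mul, map_inv, ← hy, hc])⟩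
  have s2 : ∃ c, y * lo 1 * y⁻¹ = up c := by
    have := W.conj_neg_fix hnT hnc O.negJ_lt (B := O.posJ J) (fun r hr => O.act_wJ_mem' hR J hr)
      ((h.neg _).2 ⟨1, rfl⟩)
    obtain ⟨c, hc⟩ := (h.pos _).1 this
    exact ⟨c, hinj (by rw [map_mul, map_mul, map_inv, ← hy, hc])⟩
  obtain ⟨d, hd⟩ := eq_wm_of_swap s1 s2
  have e : φ (wm 1) = (φ (dg d))⁻¹ * n := by rw [hy, hd, map_mul, inv_mul_cancel_left]
  rw [e]
  refine ⟨mul_mem (S.Hbar_le_Nbar (inv_mem (h.dg_mem d))) hn, ?_⟩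
  simpa using (S.conjP_Hbar hS hR (inv_mem (h.dg_mem d))).mul hR hnc

/-- An element permuting the roots of the orbit normalises the root groups of the orbit. -/
theorem conj_up {J' : ι} {L' : Type*} [Field L'] {φ' : SL(2, L') →* G} (h' : OrbHom (O := O) φ' J')
    {g : G} {w : List (Fin D.rank)} (hg : g ∈ W.Tw) (hc : S.ConjP g w)
    (hp : ∀ r ∈ O.posJ J, act D w r ∈ O.posJ J') (hn : ∀ r ∈ O.negJ J, act D w r ∈ O.negJ J') :
    (∀ t, ∃ t', g * φ (up t) * g⁻¹ = φ' (up t')) ∧ ∀ t, ∃ t', g * φ (lo t) * g⁻¹ = φ' (lo t') :=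
  ⟨fun t => (h'.pos _).1 (W.conj_neg_fix hg hc O.posJ_lt hp ((h.pos _).2 ⟨t, rfl⟩)),
    fun t => (h'.neg _).1 (W.conj_neg_fix hg hc O.negJ_lt hn ((h.neg _).2 ⟨t, rfl⟩))⟩

theorem tor_conj (hS : Rules D F) (hR : RootTable D len) {g : G} (hgT : g ∈ W.Tw) (hg : g ∈ S.Hbar) :
    (∀ t, ∃ t', g * φ (up t) * g⁻¹ = φ (up t')) ∧ ∀ t, ∃ t', g * φ (lo t) * g⁻¹ = φ (lo t') :=
  h.conj_up W h hgT (S.conjP_Hbar hS hR hg) (fun r hr => by simpa [act_nil] using hr)
    (fun r hr => by simpa [act_nil] using hr)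

end OrbHom

end Cfsg.Agent.CentralExt.TwCells
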