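import Cfsg.Agent.CentralExt.TwCells.Cells
import Cfsg.Agent.CentralExt.TwCells.OrbHom
import Cfsg.Agent.CentralExt.SL2
import Cfsg.Agent.ChevGrp.Torus
import Mathlib.GroupTheory.Coxeter.Basic
import Mathlib.GroupTheory.NoncommPiCoprod

/-!
# Central extensions by a group of order prime to the characteristic of a twisted group (owner: helper85)

The lifts of the rank one homomorphisms give a lifted monomial group; the kernel is bounded by the kernel of
the product of the tori.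
-/

set_option autoImplicit false
set_option linter.style.haveILetI false
set_option linter.unusedSectionVars false

namespace Cfsg.Agent.CentralExt.TwCells

open Cfsg.Lie Cfsg.Agent.ChevGrp Cfsg.Agent.ChevTw Cfsg.Agent.CTits Cfsg.Agent.CentralExt.BNLift
open scoped MatrixGroups commutatorElement

variable {D : ChevalleyDatum} {F : Type*} [Field F] {G : Type*} [Group G] {len : ℕ → ℕ}
  {S : Sys D F G} {T : Twist S} {ι : Type*} {O : Orbits T ι} (W : TwGroup O)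

/-- A word carries the orbit `a` to the orbit `b`. -/
def Maps (O : Orbits T ι) (w : List (Fin D.rank)) (a b : ι) : Prop :=
  (∀ r ∈ O.posJ a, act D w r ∈ O.posJ b) ∧ (∀ r ∈ O.negJ a, act D w r ∈ O.negJ b) ∧
    (∀ r ∈ O.posJ b, act D w.reverse r ∈ O.posJ a) ∧ ∀ r ∈ O.negJ b, act D w.reverse r ∈ O.negJ a

theorem maps_nil (O : Orbits T ι) (a : ι) : Maps O [] a a :=
  ⟨fun r h => by simpa [act_nil] using h, fun r h => by simpa [act_nil] using h,
    fun r h => by simpa [act_nil] using h, fun r h => by simpa [act_nil] using h⟩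

theorem commute_of_conj {M : Type*} [Group M] {g x : M} (h : g * x * g⁻¹ = x) : Commute g x :=
  mul_inv_eq_iff_eq_mul.1 h

/-- The braid relations in a group generated by involutions follow from conjugations. -/
theorem braid_rel {Q : Type*} [Group Q] {x y : Q} (hx : x * x = 1) (hy : y * y = 1) :
    (x * y * x⁻¹ = y → (x * y) ^ 2 = 1) ∧
      (x * y * x * (x * y)⁻¹ = y → (x * y) ^ 3 = 1) ∧
      (x * y * x * y * (x * y * x)⁻¹ = y → (x * y) ^ 4 = 1) := by
  have hxi : x⁻¹ = x := inv_eq_of_mul_eq_one_right hx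
  have hyi : y⁻¹ = y := inv_eq_of_mul_eq_one_right hy
  refine ⟨fun h => ?_, fun h => ?_, fun h => ?_⟩
  · rw [hxi] at h
    calc (x * y) ^ 2 = x * y * x * y := by simp [pow_succ, mul_assoc]
      _ = 1 := by rw [h, hy]
  · rw [mul_inv_rev, hxi, hyi] at h
    calc (x * y) ^ 3 = x * y * x * (y * x) * y := by simp [pow_succ, mul_assoc]
      _ = 1 := by rw [h, hy]
  · rw [mul_inv_rev, mul_inv_rev, hxi, hyi] at h
    calc (x * y) ^ 4 = x * y * x * y * (x * (y * x)) * y := by simp [pow_succ, mul_assoc]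
      _ = 1 := by rw [h, hy]

theorem card_ker_dvd (hS : Rules D F) (hR : RootTable D len) (hHM : S.HMul) {ks0 : List ι} (h0 : IsLongest O ks0)
    [Fintype ι] [DecidableEq ι] [Finite F] [Finite ↥W.Tw] {p r : ℕ} [Fact p.Prime] [Fact r.Prime] [CharP F p]
    (hne : p ≠ r) (k : ι → Subfield F) (φ : ∀ J, SL(2, ↥(k J)) →* G) (hφ : ∀ J, OrbHom (O := O) (φ J) J)
    (hU : IsPGroup p ↥(S.Ubar ⊓ W.Tw)) (M : CoxeterMatrix ι)
    (hfaith : ∀ ks, (∀ i < D.nroots, act D (O.word ks) i = i) → M.toCoxeterSystem.wordProd ks = 1)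
    (hbraid : ∀ i j, i = j ∨ (M i j = 2 ∧ Maps O (O.word [i]) j j) ∨ (M i j = 3 ∧ Maps O (O.word [i, j]) i j) ∨
      (M i j = 4 ∧ Maps O (O.word [i, j, i]) j j))
    (ψ : (∀ J, (↥(k J))ˣ) →* G) (hψ : ∀ J a, ψ (Pi.mulSingle J a) = φ J (dg a))
    {Δ : Type*} [Group Δ] [Finite Δ] {τ : Δ →* ↥W.Tw} (hτ : IsStemExtension τ) (hk : IsPGroup r τ.ker) :
    Nat.card τ.ker ∣ Nat.card ψ.ker := by
  classical
  set f : Δ →* G := W.Tw.subtype.comp τ with hfdef
  have hfk : f.ker = τ.ker := by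
    ext x
    simp [hfdef, MonoidHom.mem_ker]
  have hfc : f.ker ≤ Subgroup.center Δ := hfk ▸ hτ.2.1
  have hfp : IsPGroup r f.ker := by rw [hfk]; exact hk
  have hTw : ∀ x, f x ∈ W.Tw := fun x => (τ x).2
  have hrange : f.range = W.Tw := by
    rw [hfdef, MonoidHom.range_comp, MonoidHom.range_eq_top.2 hτ.1, ← MonoidHom.range_eq_map,
      Subgroup.range_subtype]
  haveI : ∀ J, CharP ↥(k J) p := fun J => (Subfield.subtype (k J)).charP Subtype.val_injective p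
  haveI : ∀ J, Fintype ↥(k J) := fun J => Fintype.ofFinite _
  -- the lifts of the rank one homomorphisms
  have hρex : ∀ J, ∃ ρ : SL(2, ↥(k J)) →* Δ, ∀ y, f (ρ y) = φ J y := fun J => by
    obtain ⟨ρ, hρ⟩ := BNLift.exists_lift hne hτ.1 hτ.2.1 hk
      ((φ J).codRestrict W.Tw ((hφ J).mem_Tw W)) gen_pel
      (SL2.not_dvd_card_schurMult_of_ne_char r (BNLift.not_dvd_card hne))
    exact ⟨ρ, fun y => congrArg Subtype.val (hρ y)⟩
  choose ρ hρ using hρex
  set U := S.Ubar ⊓ W.Tw with hUdef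
  haveI : Finite ↥U := Finite.of_injective (Subgroup.inclusion (inf_le_right : U ≤ W.Tw)) (Subgroup.inclusion_injective _)
  obtain ⟨n, hn⟩ := hU.exists_card_eq
  have hrU : ¬ r ∣ Nat.card ↥U := by
    rw [hn]
    exact fun h => hne ((Nat.prime_dvd_prime_iff_eq Fact.out Fact.out).1
      ((Fact.out : r.Prime).dvd_of_dvd_pow h)).symm
  obtain ⟨U', hU'm, hU'k, hU'⟩ := TwCells.exists_lift hfc hfp (K := U) (hrange.symm ▸ inf_le_right) hrU
  have liftU : ∀ u ∈ U, ∃ u' ∈ U', f u' = u := fun u hu => by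
    rw [← hU'm] at hu; exact hu
  have hpelU : ∀ {x}, x ∈ U' → PEl p x := fun {x} hx => ⟨n, hn ▸ ((hU' x).1 hx).2⟩
  have fU : ∀ {x}, x ∈ U' → f x ∈ U := fun {x} hx => ((hU' x).1 hx).1
  have puniq : ∀ {x y : Δ}, PEl p x → PEl p y → f x = f y → x = y := fun hx hy h =>
    plift_unique hne hfc hfp hx hy h
  have memU : ∀ {x}, PEl p x → f x ∈ U → x ∈ U' := fun {x} hx h => by
    obtain ⟨u', hu', e⟩ := liftU _ h
    rw [puniq hx (hpelU hu') e.symm]
    exact hu'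
  have conjU : ∀ {x a : Δ}, a ∈ U' → f x * f a * (f x)⁻¹ ∈ U → x * a * x⁻¹ ∈ U' := fun {x a} ha h =>
    memU ((hpelU ha).conj x) (by rw [map_mul, map_mul, map_inv]; exact h)
  -- conjugation of the lifts
  have hconj : ∀ {a b : ι} {g : Δ} {w : List (Fin D.rank)}, S.ConjP (f g) w → Maps O w a b →
      ∀ y, ∃ z, g * ρ a y * g⁻¹ = ρ b z := by
    intro a b g w hc hm
    obtain ⟨hup, hlo⟩ := (hφ a).conj_up W (hφ b) (hTw g) hc hm.1 hm.2.1
    refine sl2_induction (fun y => ∃ z, g * ρ a y * g⁻¹ = ρ b z) (fun t => ?_) (fun t => ?_) ?_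
    · obtain ⟨t', ht'⟩ := hup t
      exact ⟨up t', puniq (((pel_up t).map (ρ a)).conj g) ((pel_up t').map (ρ b))
        (by rw [map_mul, map_mul, map_inv, hρ, hρ, ht'])⟩
    · obtain ⟨t', ht'⟩ := hlo t
      exact ⟨lo t', puniq (((pel_lo t).map (ρ a)).conj g) ((pel_lo t').map (ρ b))
        (by rw [map_mul, map_mul, map_inv, hρ, hρ, ht'])⟩
    · rintro A B ⟨A', hA⟩ ⟨B', hB⟩
      exact ⟨A' * B', by rw [map_mul, map_mul, ← hA, ← hB]; group⟩
  let s : ι → Δ := fun J => ρ J (wm 1)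
  have hfs : ∀ J, f (s J) = φ J (wm 1) := fun J => hρ J _
  have hswap : ∀ {a b : ι} {g : Δ} {w : List (Fin D.rank)}, S.ConjP (f g) w → Maps O w a b →
      ∃ c, g * s a * g⁻¹ = ρ b (dg c) * s b := by
    intro a b g w hc hm
    obtain ⟨z, hz⟩ := hconj hc hm (wm 1)
    have hfz : φ b z = f g * φ a (wm 1) * (f g)⁻¹ := by
      rw [← hρ, ← hz, map_mul, map_mul, map_inv, hρ]
    have hcz : S.ConjP (φ b z) (w ++ O.wJ a ++ w.reverse) := by
      rw [hfz]
      exact (hc.mul hR ((hφ a).wm_conjP W hS hR).2).mul hR (hc.inv hR)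
    have hT : φ b z ∈ W.Tw := (hφ b).mem_Tw W z
    have hinj := (hφ b).injective hS hR
    have s1 : ∃ c, z * up 1 * z⁻¹ = lo c := by
      have := W.conj_neg_fix hT hcz O.posJ_lt (fun i hi => by
        rw [act_append, act_append]
        exact hm.2.1 _ (O.act_wJ_mem hR a (hm.2.2.1 i hi))) (((hφ b).pos _).2 ⟨1, rfl⟩)
      obtain ⟨c, hc⟩ := ((hφ b).neg _).1 this
      exact ⟨c, hinj (by rw [map_mul, map_mul, map_inv, hc])⟩
    have s2 : ∃ c, z * lo 1 * z⁻¹ = up c := by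
      have := W.conj_neg_fix hT hcz O.negJ_lt (B := O.posJ b) (fun i hi => by
        rw [act_append, act_append]
        exact hm.1 _ (O.act_wJ_mem' hR a (hm.2.2.2 i hi))) (((hφ b).neg _).2 ⟨1, rfl⟩)
      obtain ⟨c, hc⟩ := ((hφ b).pos _).1 this
      exact ⟨c, hinj (by rw [map_mul, map_mul, map_inv, hc])⟩
    obtain ⟨c, rfl⟩ := eq_wm_of_swap s1 s2
    exact ⟨c, by rw [hz, map_mul]⟩
  -- the torus
  let hh : ∀ J, (↥(k J))ˣ →* Δ := fun J => (ρ J).comp dgHom
  have hhH : ∀ J a, f (hh J a) ∈ S.Hbar := fun J a => by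
    show f (ρ J (dg a)) ∈ S.Hbar
    rw [hρ]; exact (hφ J).dg_mem a
  have hcomm : ∀ (i j : ι) a b, Commute (hh i a) (hh j b) := fun i j a b => by
    have hc := S.conjP_Hbar hS hR (hhH i a)
    obtain ⟨z, hz⟩ := hconj hc (maps_nil O j) (dg b)
    refine commute_of_conj ?_
    show hh i a * ρ j (dg b) * (hh i a)⁻¹ = ρ j (dg b)
    rw [hz]
    congr 1
    refine (hφ j).injective hS hR ?_
    rw [← hρ, ← hz, map_mul, map_mul, map_inv, hρ,
      S.Hbar_comm hS hR hHM _ (hhH i a) _ ((hφ j).dg_mem b), mul_inv_cancel_right]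
  let Φ : (∀ J, (↥(k J))ˣ) →* Δ := MonoidHom.noncommPiCoprod hh fun i j _ a b => hcomm i j a b
  have hΦs : ∀ J a, Φ (Pi.mulSingle J a) = ρ J (dg a) := fun J a =>
    MonoidHom.noncommPiCoprod_mulSingle (ϕ := hh) J a
  have hΦmem : ∀ K : Subgroup Δ, (∀ J a, ρ J (dg a) ∈ K) → ∀ c, Φ c ∈ K := fun K hK c => by
    show c ∈ K.comap Φ
    rw [← Finset.univ_prod_mulSingle c]
    exact Subgroup.prod_mem _ fun J _ => by rw [Subgroup.mem_comap, hΦs]; exact hK J _
  set T' := Φ.range with hT'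
  have hΦψ : f.comp Φ = ψ := by
    refine MonoidHom.pi_ext fun J a => ?_
    rw [MonoidHom.comp_apply, hΦs, hψ, hρ]
  have hhT : ∀ J a, ρ J (dg a) ∈ T' := fun J a => ⟨Pi.mulSingle J a, hΦs J a⟩
  have hTH : ∀ {t}, t ∈ T' → f t ∈ S.Hbar := by
    rintro _ ⟨c, rfl⟩
    exact hΦmem (S.Hbar.comap f) hhH c
  let N' : Subgroup Δ := T' ⊔ Subgroup.closure (Set.range s)
  have hs : ∀ J, s J ∈ N' := fun J => Subgroup.mem_sup_right (Subgroup.subset_closure ⟨J, rfl⟩)
  have hTN : T' ≤ N' := le_sup_left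
  have hsT : ∀ i, ∀ t ∈ T', s i * t * (s i)⁻¹ ∈ T' := by
    intro i
    have hle : T' ≤ T'.comap (MulAut.conj (s i)).toMonoidHom := by
      rintro _ ⟨c, rfl⟩
      refine hΦmem _ (fun j a => ?_) c
      show s i * ρ j (dg a) * (s i)⁻¹ ∈ T'
      set h := ρ j (dg a) with hhdef
      have hc : S.ConjP (f h⁻¹) [] := S.conjP_Hbar hS hR (by rw [map_inv]; exact inv_mem (hhH j a))
      obtain ⟨c, e⟩ := hswap hc (maps_nil O i)
      rw [inv_inv] at e
      rw [show s i * h * (s i)⁻¹ = h * (h⁻¹ * s i * h) * (s i)⁻¹ by group, e, ← mul_assoc,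
        mul_inv_cancel_right]
      exact mul_mem (hhT j a) (hhT i c)
    exact fun t ht => hle ht
  have hTnorm : N' ≤ Subgroup.normalizer (T' : Set Δ) := by
    refine sup_le Subgroup.le_normalizer ((Subgroup.closure_le _).2 ?_)
    rintro _ ⟨i, rfl⟩
    exact Subgroup.mem_normalizer_fintype fun t ht => hsT i t ht
  have hNb : ∀ {x}, x ∈ N' → f x ∈ S.Nbar := by
    intro x hx
    have hle : N' ≤ S.Nbar.comap f := by
      refine sup_le (fun t ht => S.Hbar_le_Nbar (hTH ht)) ((Subgroup.closure_le _).2 ?_)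
      rintro _ ⟨i, rfl⟩
      show f (s i) ∈ S.Nbar
      rw [hfs]
      exact ((hφ i).wm_conjP W hS hR).1
    exact hle hx
  haveI : (T'.subgroupOf N').Normal := (Subgroup.normal_subgroupOf_iff hTN).2 fun t x ht hx =>
    (Subgroup.mem_normalizer_iff.1 (hTnorm hx) t).1 ht
  let π : ↥N' →* ↥N' ⧸ T'.subgroupOf N' := QuotientGroup.mk' _
  let a : ι → ↥N' ⧸ T'.subgroupOf N' := fun i => π ⟨s i, hs i⟩
  have hπ1 : ∀ x : ↥N', π x = 1 ↔ (x : Δ) ∈ T' := fun x =>
    (QuotientGroup.eq_one_iff x).trans Subgroup.mem_subgroupOf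
  have hπeq : ∀ {x y : ↥N'}, (∃ t ∈ T', (x : Δ) = t * y) → π x = π y := fun {x y} ⟨t, ht, e⟩ => by
    rw [← mul_inv_eq_one, ← map_inv, ← map_mul, hπ1]
    show (x : Δ) * (y : Δ)⁻¹ ∈ T'
    rw [e, mul_inv_cancel_right]
    exact ht
  have ha : ∀ i, a i * a i = 1 := fun i => by
    rw [← map_mul, hπ1]
    show ρ i (wm 1) * ρ i (wm 1) ∈ T'
    rw [← map_mul, wm_sq]
    exact hhT i _
  have hword : ∀ ks : List ι, ∃ x : ↥N', π x = (ks.map a).prod ∧ S.ConjP (f x) (O.word ks) := by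
    intro ks
    induction ks with
    | nil =>
      refine ⟨1, by simp, ?_⟩
      rw [OneMemClass.coe_one, map_one]
      exact S.conjP_one
    | cons i ks ih =>
      obtain ⟨x, hx, hc⟩ := ih
      refine ⟨⟨s i, hs i⟩ * x, by rw [map_mul, hx]; rfl, ?_⟩
      rw [Subgroup.coe_mul, map_mul, show i :: ks = [i] ++ ks from rfl, O.word_append, O.word_singleton]
      refine Sys.ConjP.mul hR ?_ hc
      show S.ConjP (f (s i)) _
      rw [hfs]
      exact ((hφ i).wm_conjP W hS hR).2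
  have hrel : ∀ {ks : List ι} {i j : ι}, Maps O (O.word ks) i j →
      (ks.map a).prod * a i * ((ks.map a).prod)⁻¹ = a j := by
    intro ks i j hm
    obtain ⟨x, hx, hc⟩ := hword ks
    obtain ⟨c, e⟩ := hswap hc hm
    rw [← hx, ← map_inv, ← map_mul, ← map_mul]
    exact hπeq ⟨_, hhT j c, e⟩
  have hlift : M.IsLiftable a := by
    intro i j
    rcases hbraid i j with rfl | ⟨e, h⟩ | ⟨e, h⟩ | ⟨e, h⟩
    · rw [M.diagonal, pow_one, ha]
    all_goals rw [e]
    all_goals have h' := hrel h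
    all_goals simp only [List.map_cons, List.map_nil, List.prod_cons, List.prod_nil, mul_one,
      ← mul_assoc] at h'
    · exact (braid_rel (ha i) (ha j)).1 h'
    · exact (braid_rel (ha i) (ha j)).2.1 h'
    · exact (braid_rel (ha i) (ha j)).2.2 h'
  let χ : M.Group →* ↥N' ⧸ T'.subgroupOf N' := M.toCoxeterSystem.lift ⟨a, hlift⟩
  have hχ : ∀ ks, χ (M.toCoxeterSystem.wordProd ks) = (ks.map a).prod := fun ks => by
    induction ks with
    | nil => simp
    | cons i ks ih =>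
      rw [M.toCoxeterSystem.wordProd_cons, map_mul, ih, List.map_cons, List.prod_cons,
        M.toCoxeterSystem.lift_apply_simple hlift i]
  have hsurjW : ∀ x : ↥N', ∃ w, χ w = π x := by
    intro x
    have hle : N' ≤ ((χ.range).comap π).map N'.subtype := by
      refine sup_le (fun t ht => ⟨⟨t, hTN ht⟩, ?_, rfl⟩) ((Subgroup.closure_le _).2 ?_)
      · show π ⟨t, hTN ht⟩ ∈ χ.range
        rw [(hπ1 _).2 ht]
        exact one_mem _
      · rintro _ ⟨i, rfl⟩
        exact ⟨⟨s i, hs i⟩, ⟨M.simple i, M.toCoxeterSystem.lift_apply_simple hlift i⟩, rfl⟩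
    obtain ⟨y, ⟨w, hw⟩, e⟩ := hle x.2
    exact ⟨w, hw.trans (congrArg π (Subtype.ext e))⟩
  have hweyl : ∀ {x}, x ∈ N' → f x ∈ S.Hbar → x ∈ T' := by
    intro x hx hH
    obtain ⟨w, hw⟩ := hsurjW ⟨x, hx⟩
    obtain ⟨ks, rfl⟩ := M.toCoxeterSystem.wordProd_surjective w
    obtain ⟨y, hy, hc⟩ := hword ks
    rw [hχ, ← hy] at hw
    have ht : (⟨x, hx⟩ : ↥N').1⁻¹ * y ∈ T' := by
      have h1 : π (⟨x, hx⟩⁻¹ * y) = 1 := by rw [map_mul, map_inv, hw, inv_mul_cancel]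
      exact (hπ1 _).1 h1
    have hyH : f (y : Δ) ∈ S.Hbar := by
      have h1 := mul_mem hH (hTH ht)
      rw [← map_mul] at h1
      simpa using h1
    have hone : M.toCoxeterSystem.wordProd ks = 1 := hfaith ks fun i hi => by
      rw [Sys.ConjP.act_unique S hR hc (S.conjP_Hbar hS hR hyH) i hi, act_nil]
    have h2 : π ⟨x, hx⟩ = 1 := by rw [← hw, hy, ← hχ, hone, map_one]
    exact (hπ1 _).1 h2
  -- cells
  let C : Set Δ := {e | ∃ u ∈ U', ∃ m ∈ N', ∃ v ∈ U', e = u * m * v}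
  have hsC : ∀ J, ∀ e ∈ C, s J * e ∈ C := by
    rintro J _ ⟨u, hu, m, hm, v, hv, rfl⟩
    obtain ⟨hsN, hsc⟩ := (hφ J).wm_conjP W hS hR
    rw [← hfs] at hsN hsc
    obtain ⟨huU, hufix⟩ := (W.fixUbar_eq hS hR (O.comm_word hR ks0) (h0.invSet_eq hR)).1 (fU hu)
    set A : Set ℕ := {i | D.IsPosRoot i ∧ ¬ D.InRootSub (O.nodes J) i} with hA
    have hAc : UClosed D len (htHom D) A := by
      rw [hA, ← hR.degPos_outJ_eq]
      exact hR.posSet_closed.subset_closed (fun i hi => hR.pos_of_degPos _ hi)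
        fun i hi l hl hne c hc => (hR.degPos_closed _).closed i hi l hl hne c hc
    obtain ⟨b, hb, c, hc, huac⟩ := S.US_eq_mul hR hR.posSet_closed hAc (O.posJ_closed hR J)
      (Set.ext fun i => ⟨fun h => h.elim (fun h => h.1) fun h => h.1, fun h => by
        by_cases hJ : D.InRootSub (O.nodes J) i
        · exact Or.inr ⟨h, hJ⟩
        · exact Or.inl ⟨h, hJ⟩⟩)
      (Set.disjoint_left.2 fun i h1 h2 => h1.2 h2.2) huU
    have hAlt : ∀ i ∈ A, i < D.nroots := fun i hi => hi.1.1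
    have hAρ : ∀ i ∈ A, T.ρ i ∈ A := fun i hi =>
      ⟨T.ρ_pos i hi.1, fun hin => O.ρ_out hR J hi.1 (fun h => hi.2 h.2) ⟨T.ρ_pos i hi.1, hin⟩⟩
    rw [huac, T.sig_mul b (Twist.US_le_Gbar hAlt hb) c (Twist.US_le_Gbar O.posJ_lt hc)] at hufix
    obtain ⟨eb, ec⟩ := split_unique hS hR O J (T.sig_US hAlt hAρ hb) hb
      (posJ_le_LJ O J (T.sig_US O.posJ_lt (fun i hi => O.ρ_posJ hR J hi) hc)) (posJ_le_LJ O J hc) hufix
    obtain ⟨t, rfl⟩ := ((hφ J).pos c).1 ⟨hc, ec⟩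
    set c' := ρ J (up t) with hc'def
    have hc' : c' ∈ U' := memU ((pel_up t).map (ρ J)) (by
      rw [hρ]; exact posJ_mem_U W J ⟨hc, ec⟩)
    set a' := u * c'⁻¹ with ha'
    have ha'U : a' ∈ U' := mul_mem hu (inv_mem hc')
    have hfa : f a' = b := by rw [ha', map_mul, map_inv, hρ, huac, mul_inv_cancel_right]
    have hsa : s J * a' * (s J)⁻¹ ∈ U' := conjU ha'U (by
      rw [hfa]
      exact W.conj_pos_mem hS hR h0 (hTw _) hsc hAlt
        (fun i hi => (O.act_wJ_out hR J hi.1 fun h => hi.2 h.2).1) ⟨hb, eb⟩)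
    suffices h : ∃ u₂ ∈ U', ∃ n₂ ∈ N', ∃ v₂ ∈ U', s J * c' * m = u₂ * n₂ * v₂ by
      obtain ⟨u₂, hu₂, n₂, hn₂, v₂, hv₂, e⟩ := h
      refine ⟨s J * a' * (s J)⁻¹ * u₂, mul_mem hsa hu₂, n₂, hn₂, v₂ * v, mul_mem hv₂ hv, ?_⟩
      calc s J * (u * m * v) = (s J * a' * (s J)⁻¹) * (s J * c' * m) * v := by rw [ha']; group
        _ = _ := by rw [e]; group
    obtain ⟨w, hw⟩ := TwGroup.conjP_of_mem_Nbar hS hR (hNb hm)
    have hwr : T.Comm w.reverse := (W.comm_of_conjP hS hR (hTw m) hw).reverse hR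
    have hfc'J : f c' ∈ fixUS T (O.posJ J) := by rw [hρ]; exact ⟨hc, ec⟩
    by_cases hd : ∀ i ∈ O.posJ J, D.IsPosRoot (act D w.reverse i)
    · refine ⟨1, one_mem _, s J * m, mul_mem (hs J) hm, m⁻¹ * c' * m, ?_, by group⟩
      have h1 := conjU (x := m⁻¹) hc' (by
        have h2 := W.conj_pos_mem hS hR h0 (inv_mem (hTw m)) (hw.inv hR) O.posJ_lt hd hfc'J
        rwa [map_inv])
      rwa [inv_inv] at h1
    by_cases ht0 : t = 0
    · exact ⟨1, one_mem _, s J * m, mul_mem (hs J) hm, 1, one_mem _, by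
        rw [hc'def, ht0, up_zero, map_one]; group⟩
    -- the rank one relation
    set u1 := ρ J (up (-t⁻¹)) with hu1def
    have hu1J : f u1 ∈ fixUS T (O.posJ J) := by rw [hρ]; exact ((hφ J).pos _).2 ⟨_, rfl⟩
    have hu1U : u1 ∈ U' := memU ((pel_up _).map (ρ J)) (posJ_mem_U W J hu1J)
    have hrank : s J * c' * (s J)⁻¹ = u1 * ρ J (wm (t⁻¹)) * u1 := by
      have e1 : wm 1 * up t * (wm 1)⁻¹ = up (-t⁻¹) * wm t⁻¹ * up (-t⁻¹) := by
        rw [wm_conj_up]
        simp only [wm]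
        rw [show up (-t⁻¹) * (up t⁻¹ * lo (-t⁻¹⁻¹) * up t⁻¹) * up (-t⁻¹) =
          (up (-t⁻¹) * up t⁻¹) * lo (-t⁻¹⁻¹) * (up t⁻¹ * up (-t⁻¹)) by group, up_add, up_add]
        simp [up_zero]
      rw [← map_inv, ← map_mul, ← map_mul, e1, map_mul, map_mul]
    have hnv : ρ J (wm t⁻¹) ∈ N' := by
      rw [wm_eq (inv_ne_zero ht0), map_mul]
      exact mul_mem (hTN (hhT J _)) (hs J)
    push Not at hd
    obtain ⟨i₀, hi₀, hi₀n⟩ := hd
    obtain ⟨i, hiJ, hi⟩ : ∃ i : Fin D.rank, (i : ℕ) ∈ O.nodes J ∧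
        ¬ D.IsPosRoot (act D w.reverse (D.simple i)) := by
      by_contra hcon
      push Not at hcon
      exact hi₀n (pos_of_support hR _ _ hcon hi₀.1 hi₀.2)
    obtain ⟨-, hdis, -, -⟩ := O.descend hR hwr
      (O.orbit_neg hR hwr hiJ (hR.neg_of_not_pos (hR.act_lt _ (hR.simple_lt i i.2)) hi))
    have hn0c : S.ConjP (f (s J) * f m)⁻¹ (w.reverse ++ (O.wJ J).reverse) := by
      rw [mul_inv_rev]
      exact (hw.inv hR).mul hR (hsc.inv hR)
    have hpos0 : ∀ i ∈ O.posJ J, D.IsPosRoot (act D (w.reverse ++ (O.wJ J).reverse) i) := fun i hi => by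
      rw [act_append, act_wJ_reverse hR J hi.1.1, ← act_append]
      by_contra hneg
      exact Set.disjoint_left.1 hdis hi ⟨hi.1, hR.neg_of_not_pos (hR.act_lt _ hi.1.1) hneg⟩
    have hu1' : (s J * m)⁻¹ * u1 * (s J * m) ∈ U' := by
      have h1 := conjU (x := (s J * m)⁻¹) hu1U (by
        rw [map_inv, map_mul]
        exact W.conj_pos_mem hS hR h0 (inv_mem (mul_mem (hTw _) (hTw _))) hn0c O.posJ_lt hpos0 hu1J)
      rwa [inv_inv] at h1
    refine ⟨u1, hu1U, ρ J (wm t⁻¹) * (s J * m), mul_mem hnv (mul_mem (hs J) hm), _, hu1', ?_⟩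
    calc s J * c' * m = (s J * c' * (s J)⁻¹) * (s J * m) := by group
      _ = (u1 * ρ J (wm t⁻¹) * u1) * (s J * m) := by rw [hrank]
      _ = _ := by group
  let H' : Subgroup Δ := Subgroup.closure ((U' : Set Δ) ∪ Set.range s)
  have hH'C : ∀ e ∈ H', e ∈ C := by
    have hgen : ∀ g ∈ (U' : Set Δ) ∪ Set.range s, ∀ e ∈ C, g * e ∈ C := by
      rintro g (hg | ⟨J, rfl⟩)
      · rintro _ ⟨u, hu, m, hm, v, hv, rfl⟩
        exact ⟨g * u, mul_mem hg hu, m, hm, v, hv, by group⟩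
      · exact hsC J
    intro e he
    induction he using Subgroup.closure_induction_left with
    | one => exact ⟨1, one_mem _, 1, one_mem _, 1, one_mem _, by group⟩
    | mul_left g hg y _ ihy => exact hgen g hg y ihy
    | inv_mul_cancel g hg y _ ihy => exact inv_mul_mem_of_finite (hgen g hg) y ihy
  have htop : H' = ⊤ := by
    have h1 : W.Tw ≤ H'.map f := by
      rw [W.gen, Subgroup.closure_le]
      rintro g ⟨J, hg | hg⟩
      · obtain ⟨u', hu', rfl⟩ := liftU g (posJ_mem_U W J hg)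
        exact ⟨u', Subgroup.subset_closure (Or.inl hu'), rfl⟩
      · obtain ⟨t, rfl⟩ := ((hφ J).neg g).1 hg
        have hu : ρ J (up (-t)) ∈ U' := memU ((pel_up _).map (ρ J)) (by
          rw [hρ]; exact posJ_mem_U W J (((hφ J).pos _).2 ⟨_, rfl⟩))
        refine ⟨s J * ρ J (up (-t)) * (s J)⁻¹, mul_mem (mul_mem (Subgroup.subset_closure (Or.inr ⟨J, rfl⟩))
          (Subgroup.subset_closure (Or.inl hu))) (inv_mem (Subgroup.subset_closure (Or.inr ⟨J, rfl⟩))), ?_⟩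
        rw [← map_inv, ← map_mul, ← map_mul, hρ, wm_conj_up, neg_neg]
    refine eq_top_of_sup_ker hτ (top_le_iff.1 fun e _ => ?_)
    obtain ⟨e', he', hee⟩ := h1 (τ e).2
    rw [show e = e' * (e'⁻¹ * e) by group]
    refine mul_mem (Subgroup.mem_sup_left he') (Subgroup.mem_sup_right ?_)
    rw [← hfk, MonoidHom.mem_ker, map_mul, map_inv, inv_mul_eq_one]
    exact hee
  have hkerT : ∀ z, f z = 1 → z ∈ T' := by
    intro z hz
    obtain ⟨u, hu, m, hm, v, hv, rfl⟩ := hH'C z (htop ▸ Subgroup.mem_top z)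
    have e : f u * f m * f v = 1 := by rw [← map_mul, ← map_mul]; exact hz
    have e' : f m = (f u)⁻¹ * (f v)⁻¹ := by
      calc f m = (f u)⁻¹ * (f u * f m * f v) * (f v)⁻¹ := by group
        _ = _ := by rw [e, mul_one]
    have hUb : f m ∈ S.Ubar := e' ▸ mul_mem (inv_mem (fU hu).1) (inv_mem (fU hv).1)
    have hmH : f m ∈ S.Hbar := by
      rw [← S.Bbar_inf_Nbar hS hR]
      exact Subgroup.mem_inf.2 ⟨S.Ubar_le_Bbar hUb, hNb hm⟩
    have hm1 : f m = 1 := by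
      have h1 : f m ∈ S.Ubar ⊓ S.Hbar := Subgroup.mem_inf.2 ⟨hUb, hmH⟩
      rwa [S.Ubar_inf_Hbar hS hR, Subgroup.mem_bot] at h1
    have huv : u * v = 1 := by
      have h1 : u * v ∈ U' ⊓ f.ker := Subgroup.mem_inf.2 ⟨mul_mem hu hv, by
        rw [MonoidHom.mem_ker, map_mul]
        simpa [hm1] using e⟩
      rwa [hU'k, Subgroup.mem_bot] at h1
    rw [mul_assoc u m v, ← (Subgroup.mem_center_iff.1 (hfc hm1) v), ← mul_assoc, huv, one_mul]
    exact hweyl hm hmH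
  -- counting
  have hmem : ∀ c : ↥ψ.ker, Φ c.1 ∈ τ.ker := fun c => by
    rw [← hfk, MonoidHom.mem_ker, ← MonoidHom.comp_apply, hΦψ]
    exact c.2
  refine Subgroup.card_dvd_of_surjective ((Φ.comp ψ.ker.subtype).codRestrict τ.ker hmem) ?_
  rintro ⟨z, hz⟩
  rw [← hfk] at hz
  obtain ⟨c, rfl⟩ := hkerT z hz
  exact ⟨⟨c, by rw [MonoidHom.mem_ker, ← hΦψ]; exact hz⟩, rfl⟩

end Cfsg.Agent.CentralExt.TwCells
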